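import Cfsg.Agent.A9R.SP
import Mathlib.GroupTheory.Sylow
import Mathlib.GroupTheory.Nilpotent

/-! The case `C(V) ≤ N(⟨a⟩)` is impossible. -/

set_option autoImplicit false

namespace Cfsg.Agent.A9R

open Equiv Equiv.Perm Subgroup Function

variable {G : Type*} [Group G]

def k3ht : Perm (Fin 6) := swap 0 1 * swap 2 3
def k3hv : Perm (Fin 6) := swap 0 2 * swap 1 3
def k3hr : Perm (Fin 6) := swap 4 5
def k3hL : List (Perm (Fin 6)) := [1, swap 0 1, k3hv, swap 0 1 * k3hv, k3ht, swap 0 1 * k3ht, k3hv * k3ht, swap 0 1 * k3hv * k3ht,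
  k3hr, swap 0 1 * k3hr, k3hv * k3hr, swap 0 1 * k3hv * k3hr, k3ht * k3hr, swap 0 1 * k3ht * k3hr, k3hv * k3ht * k3hr, swap 0 1 * k3hv * k3ht * k3hr]

theorem k3h_mem : ∀ π : Perm (Fin 6), π * k3ht = k3ht * π → π ∈ k3hL := by decide +kernel

theorem k3h_cm : ∀ x ∈ k3hL, x * k3hr = k3hr * x ∧ x ^ 4 = 1 ∧
    (∀ y ∈ k3hL, x * y * x⁻¹ * y⁻¹ = 1 ∨ x * y * x⁻¹ * y⁻¹ = k3ht) ∧
    (x * x = 1 → x = k3hv ∨ x = k3hv * k3ht ∨ x = 1 ∨ x = k3ht ∨ x * k3hr = 1 ∨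
      ∃ c ∈ ([1, swap 1 2, swap 1 3, swap 0 4 * swap 1 5, swap 2 4 * swap 3 5, swap 0 4 * swap 1 5 * (swap 2 4 * swap 3 5),
        swap 2 4 * swap 3 5 * (swap 0 4 * swap 1 5)] : List (Perm (Fin 6))),
        c * (k3ht * k3hr) * c⁻¹ = x ∨ c * k3ht * c⁻¹ = x * k3hr ∨ c * k3hr * c⁻¹ = x * k3hr) := by decide +kernel

theorem k3h_f : swap 0 1 * k3ht = k3ht * swap 0 1 ∧ k3hv * k3ht = k3ht * k3hv ∧ swap 0 1 * k3hv * (swap 0 1)⁻¹ * k3hv⁻¹ = k3ht ∧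
    k3ht ≠ 1 ∧ k3ht ≠ k3hr ∧ k3hr ≠ 1 ∧ k3hv * k3hv = 1 ∧ k3hv ≠ 1 ∧ k3hv ≠ k3ht ∧ k3hv * k3hr ≠ 1 ∧ swap 1 2 * k3ht * (swap 1 2)⁻¹ = k3hv ∧
    swap 1 2 * (k3ht * k3hr) * (swap 1 2)⁻¹ = k3hv * k3hr ∧ swap 0 1 * (k3hv * k3ht) * (swap 0 1)⁻¹ = k3hv ∧
    swap 0 1 * k3hr = k3hr * swap 0 1 := by decide +kernel

theorem k3h [Finite G] {σ : Perm (Fin 6) →* G} {a : G} (inj : Injective σ) (h3 : a ^ 3 = 1) (ar : a ∉ σ.range)
    (iv : σ (swap 4 5) * a * (σ (swap 4 5))⁻¹ = a⁻¹)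
    (cV : ∀ g, g * σ (swap 0 1 * swap 2 3) = σ (swap 0 1 * swap 2 3) * g →
      g * σ (swap 0 2 * swap 1 3) = σ (swap 0 2 * swap 1 3) * g → ∃ π, ∃ u ∈ zpowers a, g = u * σ π)
    (cj : IsConj (σ (swap 0 1 * swap 2 3)) (σ (swap 4 5)))
    (nf : ¬ IsConj (σ (swap 0 1 * swap 2 3)) (σ (swap 0 1 * swap 2 3 * swap 4 5))) : False := by
  classical
  change σ k3hr * a * (σ k3hr)⁻¹ = a⁻¹ at iv
  change ∀ g, g * σ k3ht = σ k3ht * g → g * σ k3hv = σ k3hv * g → _ at cV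
  change IsConj (σ k3ht) (σ k3hr) at cj
  change ¬ IsConj (σ k3ht) (σ (k3ht * k3hr)) at nf
  obtain ⟨f1, f2, f3, f4, f5, f6, f7, f8, f9, f10, f11, f12, f13, f14⟩ := k3h_f
  have := Nat.fact_prime_two
  have cs : ∀ {c x y : Perm (Fin 6)}, c * x * c⁻¹ = y → IsConj (σ x) (σ y) := fun {c x y} h =>
    isConj_iff.2 ⟨σ c, by rw [← h, map_mul, map_mul, map_inv]⟩
  let U : Subgroup G := (centralizer {k3ht}).map σ
  have mU : ∀ {x}, x * k3ht = k3ht * x → σ x ∈ U := fun {x} h => ⟨x, mem_centralizer_singleton_iff.2 h, rfl⟩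
  have oU : ∀ {g}, g ∈ U → ∃ x, x * k3ht = k3ht * x ∧ σ x = g := fun ⟨x, h, e⟩ => ⟨x, mem_centralizer_singleton_iff.1 h, e⟩
  have pU : IsPGroup 2 U := fun ⟨g, hg⟩ => ⟨2, Subtype.ext (by
    obtain ⟨x, hx, rfl⟩ := oU hg
    show σ x ^ 2 ^ 2 = 1
    rw [← map_pow, show 2 ^ 2 = 4 from rfl, (k3h_cm x (k3h_mem x hx)).2.1, map_one])⟩
  have cU : ∀ {x y}, x ∈ U → y ∈ U → x * y * x⁻¹ * y⁻¹ = 1 ∨ x * y * x⁻¹ * y⁻¹ = σ k3ht := fun {x y} hx hy => by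
    obtain ⟨x, hx', rfl⟩ := oU hx
    obtain ⟨y, hy', rfl⟩ := oU hy
    rw [← map_inv, ← map_inv, ← map_mul, ← map_mul, ← map_mul]
    rcases (k3h_cm x (k3h_mem x hx')).2.2.1 y (k3h_mem y hy') with h | h <;> rw [h] <;> simp
  have tc : σ k3ht = σ (swap 0 1) * σ k3hv * (σ (swap 0 1))⁻¹ * (σ k3hv)⁻¹ := by
    rw [← f3, map_mul, map_mul, map_mul, map_inv, map_inv]
  have n1 : ∀ {x}, x ≠ 1 → σ x ≠ 1 := fun h e => h (inj (e.trans (map_one σ).symm))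
  let C := centralizer ({σ k3hr} : Set G)
  have UC : U ≤ C := fun g hg => by
    obtain ⟨x, hx, rfl⟩ := oU hg
    exact mem_centralizer_singleton_iff.2 (by rw [← map_mul, ← map_mul, (k3h_cm x (k3h_mem x hx)).1])
  -- the normalizer of `U` in `C` is `U`
  have key : ∀ h ∈ C, h ∈ normalizer (U : Set G) → h ∈ U := fun h hC hN => by
    have hr : h * σ k3hr = σ k3hr * h := mem_centralizer_singleton_iff.1 hC
    have nU : ∀ {x}, x ∈ U → h * x * h⁻¹ ∈ U := fun {x} hx => (mem_normalizer_iff.1 hN x).1 hx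
    have ht : h * σ k3ht * h⁻¹ = σ k3ht := by
      rcases cU (nU (mU f1)) (nU (mU f2)) with e | e
      · exact absurd (by rw [tc]; calc _ = h⁻¹ * (h * σ (swap 0 1) * h⁻¹ * (h * σ k3hv * h⁻¹) * (h * σ (swap 0 1) * h⁻¹)⁻¹ *
          (h * σ k3hv * h⁻¹)⁻¹) * h := by group
          _ = 1 := by rw [e]; group) (n1 f4)
      · conv_rhs => rw [← e]
        rw [tc]; group
    have fin : ∀ k : G, k * σ k3hr = σ k3hr * k → k * σ k3ht * k⁻¹ = σ k3ht → k * σ k3hv * k⁻¹ = σ k3hv → k ∈ U := by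
      intro k k1 k2 k3
      obtain ⟨π, u, hu, rfl⟩ := cV k (mul_inv_eq_iff_eq_mul.1 k2) (mul_inv_eq_iff_eq_mul.1 k3)
      have iu : σ k3hr * u * (σ k3hr)⁻¹ = u⁻¹ := by
        obtain ⟨i, rfl⟩ := hu
        show σ k3hr * a ^ i * (σ k3hr)⁻¹ = (a ^ i)⁻¹
        rw [← conj_zpow, iv, inv_zpow]
      have uu : u * u ∈ σ.range := ⟨k3hr * π * k3hr⁻¹ * π⁻¹, by
        rw [map_mul, map_mul, map_mul, map_inv, map_inv]
        have : u * u = u * (u * σ π * σ k3hr) * (σ k3hr)⁻¹ * (σ π)⁻¹ := by group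
        rw [this, k1]
        calc _ = u * u⁻¹ * σ k3hr * σ π * (σ k3hr)⁻¹ * (σ π)⁻¹ := by group
          _ = _ := by rw [← iu]; group⟩
      have a2 : a * a = a⁻¹ := eq_inv_of_mul_eq_one_left (by rw [← h3]; simp [pow_succ])
      rcases sp_tri h3 hu with rfl | rfl | rfl
      · refine (one_mul (σ π)).symm ▸ mU (inj ?_)
        rw [one_mul] at k2
        rw [map_mul, map_mul]; exact mul_inv_eq_iff_eq_mul.1 k2
      · exact absurd (by simpa [a2] using uu) ar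
      · exact absurd (by rw [← mul_inv_rev, a2, inv_inv] at uu; exact uu) ar
    obtain ⟨x, hx, ex⟩ := oU (nU (mU f2))
    have c1 : IsConj (σ k3ht) (σ x) := (cs f11).trans (isConj_iff.2 ⟨h, ex.symm⟩)
    have e2 : h * σ (k3hv * k3hr) * h⁻¹ = σ (x * k3hr) := by
      rw [map_mul, map_mul, ex]
      calc _ = h * σ k3hv * h⁻¹ * (h * σ k3hr) * h⁻¹ := by group
        _ = _ := by rw [hr]; group
    have c2 : IsConj (σ (k3ht * k3hr)) (σ (x * k3hr)) := (cs f12).trans (isConj_iff.2 ⟨h, e2⟩)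
    have xx : x * x = 1 := inj (by
      rw [map_mul, ex, map_one]
      calc _ = h * (σ k3hv * σ k3hv) * h⁻¹ := by group
        _ = 1 := by rw [← map_mul, f7]; simp)
    rcases (k3h_cm x (k3h_mem x hx)).2.2.2 xx with e | e | e | e | e | ⟨c, -, e | e | e⟩
    · exact fin h hr ht (by rw [← ex, e])
    · have := fin (σ (swap 0 1) * h) (by rw [mul_assoc, hr, ← mul_assoc, ← map_mul, f14, map_mul, mul_assoc])
        (by rw [mul_inv_rev, show σ (swap 0 1) * h * σ k3ht * (h⁻¹ * (σ (swap 0 1))⁻¹) =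
          σ (swap 0 1) * (h * σ k3ht * h⁻¹) * (σ (swap 0 1))⁻¹ by group, ht, ← map_mul, f1, map_mul]; group)
        (by rw [mul_inv_rev, show σ (swap 0 1) * h * σ k3hv * (h⁻¹ * (σ (swap 0 1))⁻¹) =
          σ (swap 0 1) * (h * σ k3hv * h⁻¹) * (σ (swap 0 1))⁻¹ by group, ← ex, e, ← map_inv, ← map_mul, ← map_mul, f13])
      exact (mul_mem_cancel_left (mU f1)).1 this
    · rw [e, map_one] at c1; exact absurd (isConj_one_left.1 c1) (n1 f4)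
    · rw [e, ← ht] at ex
      exact absurd (inj (mul_left_cancel (mul_right_cancel ex))).symm f9
    · rw [e, map_one] at e2; exact absurd (by simpa using e2) (n1 f10)
    · exact absurd (c1.trans (cs e).symm) nf
    · exact absurd ((cs e).trans c2.symm) nf
    · exact absurd (cj.trans ((cs e).trans c2.symm)) nf
  obtain ⟨P, hP⟩ := (pU.comap_subtype (K := C)).exists_le_sylow
  have PU : (P : Subgroup C) ≤ U.subgroupOf C := by
    by_contra hn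
    have nc := Group.normalizerCondition_of_isNilpotent (h := P.isPGroup'.isNilpotent)
    have lt : (U.subgroupOf C).subgroupOf (P : Subgroup C) < ⊤ :=
      lt_top_iff_ne_top.2 fun e => hn (subgroupOf_eq_top.1 e)
    obtain ⟨h, hN, hU⟩ := SetLike.exists_of_lt (nc _ lt)
    refine hU (key h.1.1 h.1.2 (mem_normalizer_fintype fun n hn => ?_))
    exact (mem_normalizer_iff.1 hN ⟨⟨n, UC hn⟩, hP hn⟩).1 hn
  obtain ⟨g, hg⟩ := isConj_iff.1 cj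
  have p2 : IsPGroup 2 ((U.map (MulAut.conj g).toMonoidHom).subgroupOf C) := (pU.map _).comap_subtype
  obtain ⟨Q, hQ⟩ := p2.exists_le_sylow
  obtain ⟨c, hc⟩ := MulAction.exists_smul_eq C Q P
  have mv : ∀ {x}, x * k3ht = k3ht * x → (c : G) * (g * σ x * g⁻¹) * (c : G)⁻¹ ∈ U := fun {x} hx => by
    have m : g * σ x * g⁻¹ ∈ C := mem_centralizer_singleton_iff.2 (by
      rw [← hg]
      calc _ = g * (σ x * σ k3ht) * g⁻¹ := by group
        _ = _ := by rw [← map_mul, hx, map_mul]; group)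
    have : c * ⟨_, m⟩ * c⁻¹ ∈ (P : Subgroup C) := by
      rw [← hc]
      exact Subgroup.smul_mem_pointwise_smul (⟨_, m⟩ : C) (MulAut.conj c) (Q : Subgroup C) (hQ ⟨σ x, mU hx, rfl⟩)
    exact PU this
  have cr : (c : G) * σ k3hr * (c : G)⁻¹ = σ k3hr := mul_inv_eq_iff_eq_mul.2 (mem_centralizer_singleton_iff.1 c.2)
  have fin := cU (mv f1) (mv f2)
  rw [show ∀ p q : G, (c : G) * (g * p * g⁻¹) * (c : G)⁻¹ * ((c : G) * (g * q * g⁻¹) * (c : G)⁻¹) *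
    ((c : G) * (g * p * g⁻¹) * (c : G)⁻¹)⁻¹ * ((c : G) * (g * q * g⁻¹) * (c : G)⁻¹)⁻¹ =
    c * (g * (p * q * p⁻¹ * q⁻¹) * g⁻¹) * (c : G)⁻¹ from fun p q => by group, ← tc, hg, cr] at fin
  exact fin.elim (n1 f6) fun e => f5 (inj e).symm

end Cfsg.Agent.A9R
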